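import Mathlib
import Cfsg.Agent.Lib.Helper37.U27.Defs
import Cfsg.Agent.Lib.Helper45.HermGU
import Cfsg.Agent.Lib.Helper44.UnitaryTransv

/-!
# U27 package ORTHO: the unitary frame `v, Bv, B²v`
-/

set_option autoImplicit false
open scoped MatrixGroups Matrix

namespace Cfsg.Agent.Lib.Helper25.U27

open Cfsg.Agent.Lib.Helper37.U27 Cfsg.Agent.Lib.Helper45

universe u

/-- Eigenvectors of an isometry for distinct eigenvalues (the second of norm one) are
orthogonal. -/
theorem herm_eq_zero_of_eigen {F : Type u} [Field F] [Fintype F] {q : ℕ}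
    {M : Matrix (Fin 3) (Fin 3) F} (hM : IsHermIso 3 F q M) (x y : Fin 3 → F) (c d : F)
    (hx : M *ᵥ x = c • x) (hy : M *ᵥ y = d • y) (hd : d ^ (q + 1) = 1) (hcd : c ≠ d) :
    Cfsg.hermForm 3 F q x y = 0 := by
  have h := hM x y
  rw [hx, hy, herm_smul_left, herm_smul_right] at h
  have h1 : (c * d ^ q - 1) * Cfsg.hermForm 3 F q x y = 0 := by linear_combination h
  rcases mul_eq_zero.mp h1 with h2 | h2
  · exfalso
    apply hcd
    calc c = c * d ^ (q + 1) := by rw [hd, mul_one]
      _ = (c * d ^ q) * d := by ring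
      _ = d := by rw [sub_eq_zero.mp h2, one_mul]
  · exact h2

/-- The columns of the shift matrix. -/
theorem Xm_mulVec_single {F : Type u} [Field F] (i : Fin 3) :
    Xm F *ᵥ Pi.single i 1 = Pi.single ((![1, 2, 0] : Fin 3 → Fin 3) i) 1 := by
  ext j
  fin_cases i <;> fin_cases j <;> simp [Xm, Matrix.mulVec, dotProduct, Fin.sum_univ_three]

/-- The columns of the scaled clock matrix. -/
theorem Zm_mulVec_single {F : Type u} [Field F] (w α : F) (i : Fin 3) :
    (α • Zm w) *ᵥ Pi.single i 1 = (![α, w * α, w ^ 2 * α] : Fin 3 → F) i • Pi.single i 1 := by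
  ext j
  fin_cases i <;> fin_cases j <;>
    simp [Zm, Matrix.mulVec, dotProduct, Fin.sum_univ_three, mul_comm]

theorem pkgOrtho_of (hCols : PkgCols.{u}) : PkgOrtho.{u} := by
  intro F _ _ q A B w α v hF h3q hA hB hw h3 hα hAB hB3 hv hAv
  classical
  have hq0 : q ≠ 0 := by have := two_le_q hF; omega
  obtain ⟨am, ham⟩ : ∃ am : Matrix (Fin 3) (Fin 3) F, am = (A : Matrix (Fin 3) (Fin 3) F) :=
    ⟨_, rfl⟩
  obtain ⟨bm, hbm⟩ : ∃ bm : Matrix (Fin 3) (Fin 3) F, bm = (B : Matrix (Fin 3) (Fin 3) F) :=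
    ⟨_, rfl⟩
  rw [← ham, ← hbm] at hAB
  rw [← ham] at hAv
  have hAiso : IsHermIso 3 F q am := by rw [ham]; exact hA
  have hBiso : IsHermIso 3 F q bm := by rw [hbm]; exact hB
  have hbm3 : bm * bm * bm = 1 := by
    have h := congrArg (fun x : GL (Fin 3) F => (x : Matrix (Fin 3) (Fin 3) F)) hB3
    simp only [Units.val_pow_eq_pow_val, Units.val_one] at h
    rw [hbm, ← h]
    simp [pow_succ]
  -- cube roots of unity
  have hw3 : w ^ 3 = 1 := by linear_combination (w - 1) * hw
  have hw1 : w ≠ 1 := by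
    rintro rfl
    apply h3
    linear_combination hw
  have hw21 : w ^ 2 ≠ 1 := by
    intro h
    apply hw1
    calc w = w ^ 3 * (w ^ 2)⁻¹ := by
          have hw0 : w ≠ 0 := by
            rintro rfl
            simp at hw3
          field_simp
      _ = 1 := by rw [hw3, h]; simp
  have hα0 : α ≠ 0 := by
    rintro rfl
    simp at hα
  -- the frame and the eigenvalues
  obtain ⟨f, hf⟩ : ∃ f : Fin 3 → Fin 3 → F, f = ![v, bm *ᵥ v, bm *ᵥ (bm *ᵥ v)] := ⟨_, rfl⟩
  obtain ⟨lam, hlam⟩ : ∃ lam : Fin 3 → F, lam = ![α, w * α, w ^ 2 * α] := ⟨_, rfl⟩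
  have hstep : ∀ (x : Fin 3 → F) (c : F), am *ᵥ x = c • x →
      am *ᵥ (bm *ᵥ x) = (w * c) • (bm *ᵥ x) := by
    intro x c hx
    rw [Matrix.mulVec_mulVec, hAB, Matrix.smul_mulVec, ← Matrix.mulVec_mulVec, hx,
      Matrix.mulVec_smul, smul_smul]
  have hE : ∀ i, am *ᵥ f i = lam i • f i := by
    intro i
    rw [hf, hlam]
    fin_cases i
    · exact hAv
    · exact hstep v α hAv
    · have := hstep _ _ (hstep v α hAv)
      rw [← mul_assoc, ← sq] at this
      exact this
  have hBf : ∀ i, bm *ᵥ f i = f ((![1, 2, 0] : Fin 3 → Fin 3) i) := by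
    intro i
    rw [hf]
    fin_cases i
    · rfl
    · rfl
    · show bm *ᵥ (bm *ᵥ (bm *ᵥ v)) = v
      rw [Matrix.mulVec_mulVec, Matrix.mulVec_mulVec, hbm3, Matrix.one_mulVec]
  have hlam3 : ∀ i, lam i ^ 3 = 1 := by
    intro i
    rw [hlam]
    fin_cases i
    · exact hα
    · show (w * α) ^ 3 = 1
      rw [mul_pow, hw3, hα, one_mul]
    · show (w ^ 2 * α) ^ 3 = 1
      rw [mul_pow, ← pow_mul, mul_comm 2 3, pow_mul, hw3, hα, one_pow, one_mul]
  have hlam1 : ∀ i, lam i ^ (q + 1) = 1 := by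
    intro i
    obtain ⟨k, hk⟩ := h3q
    rw [hk, pow_mul, hlam3, one_pow]
  have e01 : lam 0 ≠ lam 1 := by
    rw [hlam]
    show α ≠ w * α
    intro h
    apply hw1
    have : (w - 1) * α = 0 := by linear_combination -h
    rcases mul_eq_zero.mp this with h1 | h1
    · exact sub_eq_zero.mp h1
    · exact absurd h1 hα0
  have e02 : lam 0 ≠ lam 2 := by
    rw [hlam]
    show α ≠ w ^ 2 * α
    intro h
    apply hw21
    have : (w ^ 2 - 1) * α = 0 := by linear_combination -h
    rcases mul_eq_zero.mp this with h1 | h1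
    · exact sub_eq_zero.mp h1
    · exact absurd h1 hα0
  have e12 : lam 1 ≠ lam 2 := by
    rw [hlam]
    show w * α ≠ w ^ 2 * α
    intro h
    apply hw1
    have hw0 : w ≠ 0 := by
      rintro rfl
      simp at hw3
    have : (w - 1) * (w * α) = 0 := by linear_combination -h
    rcases mul_eq_zero.mp this with h1 | h1
    · exact sub_eq_zero.mp h1
    · exact absurd h1 (mul_ne_zero hw0 hα0)
  have hinj : ∀ i j : Fin 3, i ≠ j → lam i ≠ lam j := by
    intro i j hij
    fin_cases i <;> fin_cases j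
    · exact absurd rfl hij
    · exact e01
    · exact e02
    · exact e01.symm
    · exact absurd rfl hij
    · exact e12
    · exact e02.symm
    · exact e12.symm
    · exact absurd rfl hij
  -- the Gram table
  obtain ⟨a, ha⟩ : ∃ a : F, a = Cfsg.hermForm 3 F q v v := ⟨_, rfl⟩
  have hG : ∀ i j, Cfsg.hermForm 3 F q (f i) (f j) = if i = j then a else 0 := by
    intro i j
    by_cases hij : i = j
    · subst hij
      rw [if_pos rfl, ha, hf]
      fin_cases i
      · rfl
      · exact hBiso v v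
      · exact (hBiso _ _).trans (hBiso v v)
    · rw [if_neg hij]
      exact herm_eq_zero_of_eigen hAiso (f i) (f j) (lam i) (lam j) (hE i) (hE j) (hlam1 j)
        (hinj i j hij)
  have hf0 : f 0 = v := by rw [hf]; rfl
  have hfne : ∀ i, f i ≠ 0 := by
    have hinjB := isHermIso_injective hF hBiso
    have h1 : bm *ᵥ v ≠ 0 := by
      intro h
      apply hv
      apply hinjB
      show bm *ᵥ v = bm *ᵥ 0
      rw [h, Matrix.mulVec_zero]
    have h2 : bm *ᵥ (bm *ᵥ v) ≠ 0 := by
      intro h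
      apply h1
      apply hinjB
      show bm *ᵥ (bm *ᵥ v) = bm *ᵥ 0
      rw [h, Matrix.mulVec_zero]
    intro i
    rw [hf]
    fin_cases i
    · exact hv
    · exact h1
    · exact h2
  have hli : LinearIndependent F f := by
    apply Module.End.eigenvectors_linearIndependent' (Matrix.toLin' am) lam
    · intro i j hij
      by_contra hne
      exact hinj i j hne hij
    · intro i
      rw [Module.End.hasEigenvector_iff]
      refine ⟨Module.End.mem_eigenspace_iff.mpr ?_, hfne i⟩
      rw [Matrix.toLin'_apply]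
      exact hE i
  have hspan : Submodule.span F (Set.range f) = ⊤ :=
    hli.span_eq_top_of_card_eq_finrank' (by simp)
  have ha0 : a ≠ 0 := by
    intro ha0
    apply hv
    let φ : (Fin 3 → F) →ₗ[F] F :=
      { toFun := fun x => Cfsg.hermForm 3 F q x v
        map_add' := fun x y => herm_add_left 3 x y v
        map_smul' := fun c x => by
          rw [herm_smul_left]
          rfl }
    have hker : Submodule.span F (Set.range f) ≤ LinearMap.ker φ := by
      rw [Submodule.span_le]
      rintro _ ⟨i, rfl⟩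
      show Cfsg.hermForm 3 F q (f i) v = 0
      have := hG i 0
      rw [hf0] at this
      rw [this, ha0]
      simp
    rw [hspan] at hker
    funext i
    have h1 : Cfsg.hermForm 3 F q (Pi.single i 1) v = 0 := hker Submodule.mem_top
    have h2 := herm_conj hF 3 (Pi.single i 1) v
    rw [h1, herm_single_right hq0, conj_zero hF] at h2
    exact h2.symm
  have haq : a ^ q = a := by
    rw [ha]
    exact herm_conj hF 3 v v
  obtain ⟨t, ht⟩ := Cfsg.Agent.Lib.Helper44.exists_norm_eq hF a⁻¹ (inv_ne_zero ha0)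
    (by rw [inv_pow, haq])
  have hON : IsON q (fun i => t • f i) := by
    intro i j
    show Cfsg.hermForm 3 F q (t • f i) (t • f j) = if i = j then 1 else 0
    rw [herm_smul_left, herm_smul_right, ← mul_assoc, ← pow_succ', ht, hG]
    by_cases hij : i = j
    · rw [if_pos hij, if_pos hij, inv_mul_cancel₀ ha0]
    · rw [if_neg hij, if_neg hij, mul_zero]
  obtain ⟨g, hgU, hgc⟩ := hCols F q (fun i => t • f i) hF hON
  obtain ⟨gm, hgm⟩ : ∃ gm : Matrix (Fin 3) (Fin 3) F, gm = (g : Matrix (Fin 3) (Fin 3) F) :=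
    ⟨_, rfl⟩
  rw [← hgm] at hgc
  have hinv : ((g⁻¹ : GL (Fin 3) F) : Matrix (Fin 3) (Fin 3) F) * gm = 1 := by
    rw [hgm]
    exact Units.inv_mul g
  have hA2 : am * gm = gm * (α • Zm w) := by
    apply Matrix.ext_of_mulVec_single
    intro i
    rw [← Matrix.mulVec_mulVec, ← Matrix.mulVec_mulVec, hgc, Zm_mulVec_single,
      Matrix.mulVec_smul, Matrix.mulVec_smul, hgc, hE, ← hlam, smul_comm]
  have hB2 : bm * gm = gm * Xm F := by
    apply Matrix.ext_of_mulVec_single
    intro i
    rw [← Matrix.mulVec_mulVec, ← Matrix.mulVec_mulVec, hgc, Xm_mulVec_single, hgc,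
      Matrix.mulVec_smul, hBf]
  refine ⟨g, hgU, ?_, ?_⟩
  · rw [Units.val_mul, Units.val_mul, ← ham, ← hgm, mul_assoc, hA2, ← mul_assoc, hinv,
      one_mul]
  · rw [Units.val_mul, Units.val_mul, ← hbm, ← hgm, mul_assoc, hB2, ← mul_assoc, hinv,
      one_mul]

end Cfsg.Agent.Lib.Helper25.U27
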